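import Cfsg.Agent.H461.T5M.McL
import Cfsg.Agent.H752.TFiveCo

/-!
# The middle rows `(Co3, 5)`, `(Co2, 5)` (helper461)

The fields of `H143.T5SporM.SporBigM` are `fun K _ _ _ _ h _ => MRows.co3 K h` etc.
-/

set_option autoImplicit false

namespace Cfsg.Agent.H461.T5.MRows

open Subgroup Cfsg Cfsg.Agent.H533.T5 Cfsg.Agent.H461.T5 Cfsg.Agent.H957.T5M Cfsg.Agent.H106.MB

universe u

theorem co2 (K : Type u) [Group K] [Finite K] [IsSimpleGroup K] (h : Spor.IsoCo2 K) : MRow 5 K := by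
  obtain ⟨e⟩ := h
  have hcard : Nat.card K = 42305421312000 := by
    rw [Nat.card_congr e.toEquiv, Schreier.CoTwoStab.card]
  have hc' : Nat.card Spor.Co2 = 42305421312000 := Schreier.CoTwoStab.card
  refine MRow.of_inner (H752.TFiveCo.not_comm_of_card (by rw [hcard]; norm_num)) (fun α _ => ?_)
    (Cfsg.Agent.H797.T5.AllM.congr (S := Spor.Co2) (fun x y hx hy => McL.mpair Spor.Co2 (fun _ h => h.1)
      (fun _ h => ⟨h.1.1, h.2⟩) (by rw [hc']; norm_num) hx hy) e)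
  obtain ⟨g, hg⟩ := KFacts.CoTwo.Main.allInner_iso e α
  exact ⟨g, hg.symm⟩

theorem co3 (K : Type u) [Group K] [Finite K] [IsSimpleGroup K] (h : Spor.IsoCo3 K) : MRow 5 K := by
  obtain ⟨e⟩ := h
  have hcard : Nat.card K = 495766656000 := by
    rw [Nat.card_congr (e.trans SporRec.Co3.Model.equivCo3.symm).toEquiv, SporRec.Co3.Chain.isCo3_G3.2]
  have hc' : Nat.card Spor.Co3 = 495766656000 := by
    rw [Nat.card_congr SporRec.Co3.Model.equivCo3.symm.toEquiv, SporRec.Co3.Chain.isCo3_G3.2]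
  refine MRow.of_inner (H752.TFiveCo.not_comm_of_card (by rw [hcard]; norm_num)) (fun α _ => ?_)
    (Cfsg.Agent.H797.T5.AllM.congr (S := Spor.Co3) (fun x y hx hy => McL.mpair Spor.Co3 (fun _ h => h.1)
      (fun _ h => h.1) (by rw [hc']; norm_num) hx hy) e)
  obtain ⟨g, hg⟩ := KFacts.Co3.Sheet.inner_of (e.trans SporRec.Co3.Model.equivCo3.symm).symm α
  exact ⟨g, hg.symm⟩

end Cfsg.Agent.H461.T5.MRows
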